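import Cfsg.Agent.H889.C7O.Main
import Cfsg.Agent.H889.C7O.Mono

/-!
# Part (ZE): `ZP` over the exceptional fields (task 1882)

`zp_exc` : over the exceptional fields `(k, q) = (3, 5), (4, 3), (4, 5)` the elements `b = α ⊗ 1 + ζ ⊗ ω_w` of a thin
overgroup with `α ∈ Ω (A_j)` have `ζ = 0`, given the main theorem for one slot less.
-/

set_option autoImplicit false
set_option linter.unusedSectionVars false

namespace Cfsg.Agent.H889.C7O

open QuadraticMap hiding proj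
open Cfsg.Agent.LieClassical.OrthCore Cfsg.Agent.LieClassical.OrthTrans
open Cfsg.Agent.H882.Ten Cfsg.Agent.LieClassical.OrthFinite
open Cfsg.Agent.H883.C7

variable {F : Type*} [Field F] {κ : Type*} [Fintype κ] [DecidableEq κ] {ι : Type*} [Fintype ι] [DecidableEq ι]
  {q : QuadraticForm F (κ → F)} {M : Subgroup (((ι → κ) → F) ≃ₗ[F] ((ι → κ) → F))}

/-- `IsB` in terms of operators. -/
theorem isB_end {j : ι} {w : κ → F} {b : ((ι → κ) → F) ≃ₗ[F] ((ι → κ) → F)}
    {α : (({l // l ≠ j} → κ) → F) ≃ₗ[F] (({l // l ≠ j} → κ) → F)} {ζ : Module.End F (({l // l ≠ j} → κ) → F)}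
    (h : IsB (ten F κ j) q w b α ζ) :
    (b : Module.End F ((ι → κ) → F)) =
      (1 + li j (ζ * ((α⁻¹ : (({l // l ≠ j} → κ) → F) ≃ₗ[F] (({l // l ≠ j} → κ) → F)) :
        Module.End F (({l // l ≠ j} → κ) → F))) * sl j (om q w)) *
        li j (α : Module.End F (({l // l ≠ j} → κ) → F)) := by
  refine ext_t (isTen F κ j) fun a z => ?_
  have h1 : α⁻¹ (α a) = a := LinearEquiv.symm_apply_apply α a
  rw [LinearEquiv.coe_coe, h, Module.End.mul_apply, li_ten, LinearMap.add_apply, Module.End.one_apply,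
    Module.End.mul_apply, sl_ten, om_apply, map_smul, map_smul, li_ten, Module.End.mul_apply, LinearEquiv.coe_coe,
    LinearEquiv.coe_coe, h1]

theorem li_rU (j : ι) (α : (({l // l ≠ j} → κ) → F) ≃ₗ[F] (({l // l ≠ j} → κ) → F)) :
    ((rU (isTen F κ j) α : ((ι → κ) → F) ≃ₗ[F] ((ι → κ) → F)) : Module.End F ((ι → κ) → F)) =
      li j (α : Module.End F (({l // l ≠ j} → κ) → F)) :=
  ext_t (isTen F κ j) fun a z => by rw [LinearEquiv.coe_coe, rU_apply, li_ten]; rfl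

/-- If `α ⊗ 1` is in `M` then `ζ = 0`. -/
theorem zeta_zero (h2 : (2 : F) ≠ 0) (hq : Nondeg q) (hT : Thin q M) {w w' : κ → F} (hyp : Hyp q w w') {j : ι}
    {b : ((ι → κ) → F) ≃ₗ[F] ((ι → κ) → F)} (hb : b ∈ M)
    {α : (({l // l ≠ j} → κ) → F) ≃ₗ[F] (({l // l ≠ j} → κ) → F)} {ζ : Module.End F (({l // l ≠ j} → κ) → F)}
    (h : IsB (ten F κ j) q w b α ζ) (hα : rU (isTen F κ j) α ∈ M) : ζ = 0 := by
  have h1 : IM M (1 + li j (ζ * ((α⁻¹ : (({l // l ≠ j} → κ) → F) ≃ₗ[F] (({l // l ≠ j} → κ) → F)) :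
        Module.End F (({l // l ≠ j} → κ) → F))) * sl j (om q w)) := by
    refine ⟨b * (rU (isTen F κ j) α)⁻¹, M.mul_mem hb (M.inv_mem hα), ?_⟩
    rw [coe_mul, isB_end h, ← li_rU, mul_assoc, coe_mul_inv, mul_one]
  have h3 := li_inj hyp.left_ne (thin_end h2 hq hT hyp (li_mem j _) h1)
  refine LinearMap.ext fun a => ?_
  have h4 := LinearMap.congr_fun h3 (α a)
  have h5 : α⁻¹ (α a) = a := LinearEquiv.symm_apply_apply α a
  rw [Module.End.mul_apply, LinearEquiv.coe_coe, h5] at h4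
  exact h4

theorem om_smul (c : F) (w : κ → F) : om q (c • w) = (c * c) • om q w := by
  refine LinearMap.ext fun v => ?_
  rw [om_apply, LinearMap.smul_apply, om_apply, polar_smul_left, smul_eq_mul, smul_smul, smul_smul]
  congr 1
  ring

/-- The main lemma for two singular vectors. -/
theorem main_zero' [Finite F] (H : Hyp7 q) (hG : Good (QT q ι)) (hM : Over q M) (hT : Thin q M)
    (hexc : (Fintype.card κ = 3 ∧ Nat.card F = 5) ∨ (Fintype.card κ = 4 ∧ (Nat.card F = 3 ∨ Nat.card F = 5)))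
    (hc : 3 ≤ Fintype.card ι) {l j : ι} (hlj : l ≠ j) {w u : κ → F} (hw : q w = 0) (hw0 : w ≠ 0) (hu : q u = 0)
    (hu0 : u ≠ 0) {S T : Module.End F ((ι → κ) → F)} (hT1 : T ∈ CC F κ j) (hS : S ∈ CC F κ l) (hS' : S ∈ CC F κ j)
    (h : IM M ((1 + T * sl j (om q w)) * (1 + S * sl l (om q u)))) : S = 0 := by
  obtain ⟨w', hyp⟩ := LieClassical.OrthTrans.exists_hyp H.nd hw hw0
  obtain ⟨μ, a, b, hμ⟩ := exists_tw H hexc hyp
  obtain ⟨e, he, c, hc0, hec⟩ := exists_line H.nd H.three hu0 hu hw0 hw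
  have h1 := h.cj (hM.slE_mem H.two hG l he)
  rw [cj_mul', cj_add', cj_add', cj_one', cj_mul', cj_mul', cj_slE_sl_ne hlj, cj_slE_self _ hS, cj_slE_sl,
    cj_om (E_le_O he), hec, om_smul, sl_smul, mul_smul_comm, ← smul_mul_assoc] at h1
  have h3 := main_zero H hG hM hT hyp hμ hc hlj (cj_slE_mem l e hT1) ((CC F κ l).smul_mem hS (c * c))
    ((CC F κ j).smul_mem hS' (c * c)) h1
  exact (smul_eq_zero.1 h3).resolve_left (mul_ne_zero hc0 hc0)

/-- The group of the first components. -/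
def Cp (h2 : (2 : F) ≠ 0) (hq : Nondeg q) (M : Subgroup (((ι → κ) → F) ≃ₗ[F] ((ι → κ) → F))) (j : ι) {w : κ → F}
    (hw : q w = 0) : Subgroup ((({l // l ≠ j} → κ) → F) ≃ₗ[F] (({l // l ≠ j} → κ) → F)) where
  carrier := {α | α ∈ ⁅O (QT q {l // l ≠ j}), O (QT q {l // l ≠ j})⁆ ∧ ∃ b ∈ M, ∃ ζ, IsB (ten F κ j) q w b α ζ}
  mul_mem' := by
    rintro α α' ⟨hα, b, hb, ζ, h⟩ ⟨hα', b', hb', ζ', h'⟩
    exact ⟨Subgroup.mul_mem _ hα hα', b * b', M.mul_mem hb hb', _, isB_mul hw h h'⟩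
  one_mem' := ⟨Subgroup.one_mem _, 1, M.one_mem, 0, isB_one⟩
  inv_mem' := by
    rintro α ⟨hα, b, hb, ζ, h⟩
    exact ⟨Subgroup.inv_mem _ hα, b⁻¹, M.inv_mem hb, _, isB_inv (tst (ι := ι) h2 hq j) hw h⟩

/-- monomial elements of `E (A_j)` are in `M` -/
theorem rU_mem [Finite F] (H : Hyp7 q) (hG : Good (QT q ι)) (hM : Over q M) {j : ι}
    {α : (({l // l ≠ j} → κ) → F) ≃ₗ[F] (({l // l ≠ j} → κ) → F)}
    (hα : α ∈ ⁅O (QT q {l // l ≠ j}), O (QT q {l // l ≠ j})⁆) (hm : IsMono α) : rU (isTen F κ j) α ∈ M :=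
  hM.2 _ ((tst (ι := ι) H.two H.nd j).rU_mem_E_of_comm hG hα) (isMono_rU j hm)

/-- **Part (ZE).** -/
theorem zp_exc [Finite F] {q : QuadraticForm F (κ → F)} (H : Hyp7 q) (ht : 2 ≤ Fintype.card ι)
    {M : Subgroup (((ι → κ) → F) ≃ₗ[F] ((ι → κ) → F))} (hM : Over q M) (hT : Thin q M)
    (hexc : (Fintype.card κ = 3 ∧ Nat.card F = 5) ∨ (Fintype.card κ = 4 ∧ (Nat.card F = 3 ∨ Nat.card F = 5)))
    (IH : 3 ≤ Fintype.card ι → ∀ (j : ι)
      (M' : Subgroup ((({l // l ≠ j} → κ) → F) ≃ₗ[F] (({l // l ≠ j} → κ) → F))), Over q M' → Thin q M' →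
      ∀ g ∈ M', ∀ i, ∃ j', Carries g i j') : ZP q M := by
  classical
  intro j w hw0 hw b hb α ζ hα h
  have hG := H.good ht
  obtain ⟨w', hyp⟩ := LieClassical.OrthTrans.exists_hyp H.nd hw hw0
  have hcard : Fintype.card {l // l ≠ j} = Fintype.card ι - 1 := by
    rw [Fintype.card_subtype_compl, Fintype.card_subtype_eq]
  refine zeta_zero H.two H.nd hT hyp hb h (rU_mem H hG hM hα ?_)
  by_cases hc : Fintype.card ι = 2
  · -- one slot
    have h1 : Fintype.card {l // l ≠ j} = 1 := by omega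
    obtain ⟨l0, hl0⟩ := Fintype.card_eq_one_iff.1 h1
    have : Unique {l // l ≠ j} := ⟨⟨l0⟩, hl0⟩
    have h3 := isMono_of_unique α
    convert h3
  · have hc3 : 3 ≤ Fintype.card ι := by omega
    have hG' : Good (QT q {l // l ≠ j}) := H.good (by omega)
    have : Nonempty {l // l ≠ j} := Fintype.card_pos_iff.1 (by omega)
    refine isMono_of_carries H.two H.nd H.three hw hw0 (IH hc3 j (Cp H.two H.nd M j hw) ?_ ?_ α ⟨hα, b, hb, ζ, h⟩)
    · -- `Over`
      refine ⟨fun g hg => ?_, fun g hg hm => ?_⟩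
      · rw [← hG'.commutator_eq_E]
        exact hg.1
      · rw [← hG'.commutator_eq_E] at hg
        refine ⟨hg, rU (isTen F κ j) g, rU_mem H hG hM hg hm, 0, fun a z => ?_⟩
        rw [rU_apply, LinearMap.zero_apply, map_zero, LinearMap.zero_apply, smul_zero, add_zero]
    · -- `Thin`
      intro l u hu0 hu g hg hgt
      obtain ⟨hgE, b', hb', ζ', h'⟩ := hg
      have S := tst (ι := {l // l ≠ j}) H.two H.nd l
      obtain ⟨u', hypu⟩ := LieClassical.OrthTrans.exists_hyp H.nd hu hu0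
      have hgO : g ∈ O (QT q {l // l ≠ j}) := by
        rw [hG'.commutator_eq_E] at hgE
        exact E_le_O hgE
      obtain ⟨δ, hδ⟩ := S.inZ_of_triv (X := O (QT q {l // l ≠ j})) le_rfl (nondeg_QT H.two H.nd) hypu hgO
        (fun a z hz => hgt _ fun a' => by rw [S.pol, polar_comm q z u, hz, mul_zero])
      -- as operators
      have e1 : (g : Module.End F (({l // l ≠ j} → κ) → F)) = 1 + li l δ * sl l (om q u) := by
        refine ext_t (isTen F κ l) fun a z => ?_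
        rw [LinearEquiv.coe_coe, hδ, LinearMap.add_apply, Module.End.one_apply, Module.End.mul_apply, sl_ten,
          om_apply, map_smul, map_smul, li_ten]
      have e2 : li j (g : Module.End F (({l // l ≠ j} → κ) → F)) =
          1 + li j (li l δ) * sl (l : ι) (om q u) := by
        rw [e1, map_add, map_one, map_mul, li_sl]
      have h1 : IM M ((1 + li j (ζ' * ((g⁻¹ : (({l // l ≠ j} → κ) → F) ≃ₗ[F] (({l // l ≠ j} → κ) → F)) :
          Module.End F (({l // l ≠ j} → κ) → F))) * sl j (om q w)) *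
          (1 + li j (li l δ) * sl (l : ι) (om q u))) := by
        refine ⟨b', hb', ?_⟩
        rw [isB_end h', e2]
      have hS : li j (li l δ) ∈ CC F κ (l : ι) := by
        refine mem_CC.2 fun f => ?_
        rw [← li_sl, ← map_mul, ← map_mul, mem_CC.1 (li_mem l δ) f]
      have h3 := main_zero' H hG hM hT hexc hc3 l.2 hw hw0 hu hu0 (li_mem j _) hS (li_mem j _) h1
      have h4 := li_inj hw0 h3
      rw [h4, zero_mul, add_zero] at e1
      exact LinearEquiv.ext fun v => LinearMap.congr_fun e1 v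

end Cfsg.Agent.H889.C7O
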