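import Cfsg.Agent.H883.C7.Common

/-!
# An abstract cancellation lemma (for the exceptional fields, task 1882)

`R` is an algebra, `P` a predicate on `R` closed under multiplication and inverses (the elements of a group of
units), `A` a subalgebra commuting with two commuting elements `ol`, `oj` of square zero. `PD S T` says that
`exp (S ol + T oj)` satisfies `P`. Under suitable conditions on automorphisms, `PD S T` only if `S = T = 0`.
-/

set_option autoImplicit false
set_option linter.unusedSectionVars false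

namespace Cfsg.Agent.H889.C7O

variable {F : Type*} [Field F] {R : Type*} [Ring R] [Algebra F R]

/-- the truncated exponential -/
noncomputable def ex (F : Type*) [Field F] {R : Type*} [Ring R] [Algebra F R] (D : R) : R :=
  1 + D + (2 : F)⁻¹ • (D * D)

theorem ex_mul {D D' : R} (h1 : D * (D * D') = 0) (h3 : D * (D' * D') = 0) :
    ex F D * ex F D' = 1 + D + D' + (2 : F)⁻¹ • (D * D) + (2 : F)⁻¹ • (D' * D') + D * D' := by
  simp only [ex, mul_add, add_mul, one_mul, mul_one, mul_smul_comm, smul_mul_assoc, mul_assoc, h1, h3, mul_zero,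
    smul_zero, add_zero]
  module

theorem ex_mul_ex (h2 : (2 : F) ≠ 0) {D D' : R} (h1 : D * (D * D') = 0) (h3 : D * (D' * D') = 0)
    (hc : D * D' = D' * D) : ex F D * ex F D' = ex F (D + D') := by
  rw [ex_mul h1 h3, ex, mul_add, add_mul, add_mul, ← hc]
  have e : D * D' = (2 : F)⁻¹ • (D * D' + D * D') := by
    rw [← two_smul F, smul_smul, inv_mul_cancel₀ h2, one_smul]
  conv_lhs => rw [e]
  module

theorem ex_mul_neg (h2 : (2 : F) ≠ 0) {D : R} (h : D * (D * D) = 0) : ex F D * ex F (-D) = 1 := by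
  rw [ex_mul_ex h2 (by rw [mul_neg, mul_neg, h, neg_zero]) (by rw [neg_mul_neg, h]) (by rw [mul_neg, neg_mul]),
    add_neg_cancel, ex]
  simp

theorem ex_comm (h2 : (2 : F) ≠ 0) {D D' : R} (h : ∀ x ∈ ({D, D'} : Set R), ∀ y ∈ ({D, D'} : Set R),
    ∀ z ∈ ({D, D'} : Set R), x * (y * z) = 0) :
    (ex F D * ex F D') * (ex F (-D) * ex F (-D')) = 1 + (D * D' - D' * D) := by
  have hD : D ∈ ({D, D'} : Set R) := by simp
  have hD' : D' ∈ ({D, D'} : Set R) := by simp
  have e1 := h D hD D hD D hD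
  have e2 := h D hD D hD D' hD'
  have e3 := h D hD D' hD' D hD
  have e4 := h D hD D' hD' D' hD'
  have e5 := h D' hD' D hD D hD
  have e6 := h D' hD' D hD D' hD'
  have e7 := h D' hD' D' hD' D hD
  have e8 := h D' hD' D' hD' D' hD'
  rw [ex_mul e2 e4, ex_mul (by simp [e2]) (by simp [e4])]
  have h5 : ∀ x : R, (2 : F)⁻¹ • x + (2 : F)⁻¹ • x = x := by
    intro x
    rw [← two_smul F, smul_smul, mul_inv_cancel₀ h2, one_smul]
  simp only [mul_add, add_mul, one_mul, mul_one, mul_smul_comm, smul_mul_assoc, mul_assoc, mul_neg, neg_mul,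
    neg_neg, e1, e2, e3, e4, e5, e6, e7, e8, smul_zero, add_zero, mul_zero]
  have h6 := h5 (D * D)
  have h7 := h5 (D' * D')
  generalize (2 : F)⁻¹ • (D * D) = a at h6 ⊢
  generalize (2 : F)⁻¹ • (D' * D') = b at h7 ⊢
  rw [← h6, ← h7]
  abel

/-- The standing assumptions. -/
structure Setup (F : Type*) [Field F] {R : Type*} [Ring R] [Algebra F R] (P : R → Prop) (A : Subalgebra F R)
    (ol oj : R) : Prop where
  two : (2 : F) ≠ 0
  one : P 1
  mul : ∀ X Y, P X → P Y → P (X * Y)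
  inv : ∀ X Y, P X → X * Y = 1 → P Y
  cl : ∀ X ∈ A, ol * X = X * ol
  cj : ∀ X ∈ A, oj * X = X * oj
  comm : oj * ol = ol * oj
  l2 : ol * ol = 0
  j2 : oj * oj = 0
  th1 : ∀ Z ∈ A, P (1 + Z * (ol * oj)) → Z = 0
  th2 : ∀ Z ∈ A, P (1 + Z * oj) → Z = 0
  th3 : ∀ Z ∈ A, P (1 + Z * ol) → Z = 0

/-- the set of pairs -/
def PD (F : Type*) [Field F] {R : Type*} [Ring R] [Algebra F R] (P : R → Prop) (A : Subalgebra F R)
    (ol oj : R) (S T : R) : Prop := S ∈ A ∧ T ∈ A ∧ P (ex F (S * ol + T * oj))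

section

variable {P : R → Prop} {A : Subalgebra F R} {ol oj : R}

theorem Setup.dmul (H : Setup F P A ol oj) {S T S' T' : R} (hS' : S' ∈ A) (hT' : T' ∈ A) :
    (S * ol + T * oj) * (S' * ol + T' * oj) = (S * T' + T * S') * (ol * oj) := by
  have e1 : S * ol * (S' * ol) = 0 := by
    rw [mul_assoc, ← mul_assoc ol, H.cl _ hS', mul_assoc S', H.l2, mul_zero, mul_zero]
  have e2 : S * ol * (T' * oj) = S * T' * (ol * oj) := by
    rw [mul_assoc, ← mul_assoc ol, H.cl _ hT']; simp only [mul_assoc]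
  have e3 : T * oj * (S' * ol) = T * S' * (ol * oj) := by
    rw [mul_assoc, ← mul_assoc oj, H.cj _ hS', mul_assoc S', H.comm]; simp only [mul_assoc]
  have e4 : T * oj * (T' * oj) = 0 := by
    rw [mul_assoc, ← mul_assoc oj, H.cj _ hT', mul_assoc T', H.j2, mul_zero, mul_zero]
  rw [mul_add, add_mul, add_mul, e1, e2, e3, e4, add_mul]
  abel

theorem Setup.tri (H : Setup F P A ol oj) {S T S' T' S'' T'' : R} (hS' : S' ∈ A)
    (hT' : T' ∈ A) (hS'' : S'' ∈ A) (hT'' : T'' ∈ A) :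
    (S * ol + T * oj) * ((S' * ol + T' * oj) * (S'' * ol + T'' * oj)) = 0 := by
  rw [H.dmul hS'' hT'']
  have hZ : S' * T'' + T' * S'' ∈ A := A.add_mem (A.mul_mem hS' hT'') (A.mul_mem hT' hS'')
  set Z := S' * T'' + T' * S'' with hZd
  rw [add_mul]
  have e1 : S * ol * (Z * (ol * oj)) = 0 := by
    rw [mul_assoc, ← mul_assoc ol, H.cl _ hZ, mul_assoc Z, ← mul_assoc ol, H.l2, zero_mul, mul_zero, mul_zero]
  have e2 : T * oj * (Z * (ol * oj)) = 0 := by
    rw [mul_assoc, ← mul_assoc oj, H.cj _ hZ, mul_assoc Z, ← H.comm, ← mul_assoc oj, H.j2, zero_mul, mul_zero,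
      mul_zero]
  rw [e1, e2, add_zero]

theorem Setup.add (H : Setup F P A ol oj) {S T S' T' : R} (h : PD F P A ol oj S T)
    (h' : PD F P A ol oj S' T') : PD F P A ol oj (S + S') (T + T') := by
  obtain ⟨hS, hT, hP⟩ := h
  obtain ⟨hS', hT', hP'⟩ := h'
  refine ⟨A.add_mem hS hS', A.add_mem hT hT', ?_⟩
  set D := S * ol + T * oj with hD
  set D' := S' * ol + T' * oj with hD'
  have t1 : D * (D * D) = 0 := H.tri hS hT hS hT
  have t2 : D' * (D' * D') = 0 := H.tri hS' hT' hS' hT'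
  have t3 : D * (D * D') = 0 := H.tri hS hT hS' hT'
  have t4 : D * (D' * D') = 0 := H.tri hS' hT' hS' hT'
  have t5 : D * (D' * D) = 0 := H.tri hS' hT' hS hT
  have t6 : D' * (D * D) = 0 := H.tri hS hT hS hT
  have t7 : D' * (D * D') = 0 := H.tri hS hT hS' hT'
  have t8 : D' * (D' * D) = 0 := H.tri hS' hT' hS hT
  have i1 : P (ex F (-D)) := H.inv _ _ hP (ex_mul_neg H.two t1)
  have i2 : P (ex F (-D')) := H.inv _ _ hP' (ex_mul_neg H.two t2)
  have hc := H.mul _ _ (H.mul _ _ hP hP') (H.mul _ _ i1 i2)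
  rw [ex_comm H.two (by
    intro x hx y hy z hz
    simp only [Set.mem_insert_iff, Set.mem_singleton_iff] at hx hy hz
    rcases hx with rfl | rfl <;> rcases hy with rfl | rfl <;> rcases hz with rfl | rfl <;> assumption)] at hc
  have e1 : D * D' - D' * D = ((S * T' + T * S') - (S' * T + T' * S)) * (ol * oj) := by
    rw [hD, hD', H.dmul hS' hT', H.dmul hS hT, sub_mul]
  have hZ : (S * T' + T * S') - (S' * T + T' * S) = 0 := by
    refine H.th1 _ (A.sub_mem (A.add_mem (A.mul_mem hS hT') (A.mul_mem hT hS'))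
      (A.add_mem (A.mul_mem hS' hT) (A.mul_mem hT' hS))) ?_
    rw [← e1]
    exact hc
  rw [hZ, zero_mul, sub_eq_zero] at e1
  have h5 := H.mul _ _ hP hP'
  rw [ex_mul_ex H.two t3 t4 e1] at h5
  have e : (S + S') * ol + (T + T') * oj = D + D' := by
    rw [hD, hD', add_mul, add_mul]; abel
  rw [e]
  exact h5

theorem Setup.neg (H : Setup F P A ol oj) {S T : R} (h : PD F P A ol oj S T) : PD F P A ol oj (-S) (-T) := by
  obtain ⟨hS, hT, hP⟩ := h
  refine ⟨A.neg_mem hS, A.neg_mem hT, ?_⟩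
  have e : -S * ol + -T * oj = -(S * ol + T * oj) := by rw [neg_mul, neg_mul, neg_add]
  rw [e]
  exact H.inv _ _ hP (ex_mul_neg H.two (H.tri hS hT hS hT))

theorem Setup.zero (H : Setup F P A ol oj) : PD F P A ol oj 0 0 := by
  refine ⟨A.zero_mem, A.zero_mem, ?_⟩
  have : ex F (0 * ol + 0 * oj) = 1 := by simp [ex]
  rw [this]
  exact H.one

theorem Setup.zero_left (H : Setup F P A ol oj) {T : R} (h : PD F P A ol oj 0 T) : T = 0 := by
  obtain ⟨hS, hT, hP⟩ := h
  refine H.th2 _ hT ?_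
  have e : ex F (0 * ol + T * oj) = 1 + T * oj := by
    have h1 := H.dmul (S := 0) (T := T) hS hT
    have e0 : (0 * T + T * 0 : R) = 0 := by simp
    rw [e0, zero_mul (ol * oj)] at h1
    rw [ex, h1, smul_zero, add_zero, zero_mul, zero_add]
  rw [← e]
  exact hP

theorem Setup.zero_right (H : Setup F P A ol oj) {S : R} (h : PD F P A ol oj S 0) : S = 0 := by
  obtain ⟨hS, hT, hP⟩ := h
  refine H.th3 _ hS ?_
  have e : ex F (S * ol + 0 * oj) = 1 + S * ol := by
    have h1 := H.dmul (S := S) (T := 0) hS hT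
    have e0 : (S * 0 + 0 * S : R) = 0 := by simp
    rw [e0, zero_mul (ol * oj)] at h1
    rw [ex, h1, smul_zero, add_zero, zero_mul, add_zero]
  rw [← e]
  exact hP

/-- the pairs as an additive group -/
def Setup.grp (H : Setup F P A ol oj) : AddSubgroup (R × R) where
  carrier := {x | PD F P A ol oj x.1 x.2}
  add_mem' := fun hx hy => H.add hx hy
  zero_mem' := H.zero
  neg_mem' := fun hx => H.neg hx

theorem Setup.zsmul (H : Setup F P A ol oj) {S T : R} (h : PD F P A ol oj S T) (n : ℤ) :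
    PD F P A ol oj (n • S) (n • T) :=
  H.grp.zsmul_mem (x := (S, T)) h n

/-- automorphisms -/
theorem Setup.map (_H : Setup F P A ol oj) (f : R →ₐ[F] R) (hP : ∀ X, P X → P (f X)) (hA : ∀ X ∈ A, f X ∈ A)
    {c d : F} (hl : f ol = c • ol) (hj : f oj = d • oj) {S T : R} (h : PD F P A ol oj S T) :
    PD F P A ol oj (c • f S) (d • f T) := by
  obtain ⟨hS, hT, hP1⟩ := h
  refine ⟨A.smul_mem (hA _ hS) c, A.smul_mem (hA _ hT) d, ?_⟩
  have h1 := hP _ hP1
  rw [ex, map_add, map_add, map_smul, map_mul, map_one] at h1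
  have e : f (S * ol + T * oj) = c • f S * ol + d • f T * oj := by
    rw [map_add, map_mul, map_mul, hl, hj, mul_smul_comm, mul_smul_comm, smul_mul_assoc, smul_mul_assoc]
  rw [e] at h1
  exact h1

theorem Setup.map1 (H : Setup F P A ol oj) (f : R →ₐ[F] R) (hP : ∀ X, P X → P (f X)) (hA : ∀ X ∈ A, f X ∈ A)
    (hl : f ol = ol) (hj : f oj = oj) {S T : R} (h : PD F P A ol oj S T) :
    PD F P A ol oj (f S) (f T) := by
  have h1 := H.map f hP hA (c := 1) (d := 1) (by rw [hl, one_smul]) (by rw [hj, one_smul]) h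
  rwa [one_smul, one_smul] at h1

theorem Setup.sub (H : Setup F P A ol oj) {S T S' T' : R} (h : PD F P A ol oj S T)
    (h' : PD F P A ol oj S' T') : PD F P A ol oj (S - S') (T - T') := by
  rw [sub_eq_add_neg, sub_eq_add_neg]
  exact H.add h (H.neg h')

/-- automorphisms fixing `ol`, `oj` -/
structure G1 (P : R → Prop) (A : Subalgebra F R) (ol oj : R) (f : R →ₐ[F] R) : Prop where
  hP : ∀ X, P X → P (f X)
  hA : ∀ X ∈ A, f X ∈ A
  hl : f ol = ol
  hj : f oj = oj

theorem add_self_zero (h2 : (2 : F) ≠ 0) {X : R} (h : X + X = 0) : X = 0 := by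
  rw [← two_smul F] at h
  exact (smul_eq_zero.1 h).resolve_left h2

theorem Setup.odd_zero (H : Setup F P A ol oj) (τ : R →ₐ[F] R) (hτP : ∀ X, P X → P (τ X))
    (hτA : ∀ X ∈ A, τ X ∈ A) (hτl : τ ol = -ol) (hτj : τ oj = oj) (hτi : ∀ X, τ X = 0 → X = 0) {a b : ℤ}
    (ha : (a : F) ≠ 0) {S T : R} (h : PD F P A ol oj S T) (hS : τ (τ S) = a • τ S + b • S)
    (hT : τ (τ T) = a • τ T + b • T) : S = 0 ∧ T = 0 := by
  have hm : ∀ {S T : R}, PD F P A ol oj S T → PD F P A ol oj (-τ S) (τ T) := by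
    intro S T h
    have h1 := H.map τ hτP hτA (c := -1) (d := 1) (by rw [hτl, neg_one_smul]) (by rw [hτj, one_smul]) h
    rwa [neg_one_smul, one_smul] at h1
  have h1 := hm h
  have h3 := hm h1
  rw [map_neg, neg_neg] at h3
  have h4 := H.sub (H.add h3 (H.zsmul h1 a)) (H.zsmul h b)
  have e1 : τ (τ S) + a • -τ S - b • S = 0 := by rw [hS, smul_neg]; abel
  have e2 : τ (τ T) + a • τ T - b • T = a • τ T + a • τ T := by rw [hT]; abel
  rw [e1, e2] at h4
  have h5 := add_self_zero (F := F) H.two (H.zero_left h4)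
  have h6 : (a : F) • τ T = 0 := by rw [Int.cast_smul_eq_zsmul]; exact h5
  have h7 : T = 0 := hτi _ ((smul_eq_zero.1 h6).resolve_left ha)
  refine ⟨?_, h7⟩
  rw [h7] at h
  exact H.zero_right h

theorem Setup.even_zero (H : Setup F P A ol oj) (τ : R →ₐ[F] R) (hτP : ∀ X, P X → P (τ X))
    (hτA : ∀ X ∈ A, τ X ∈ A) (hτl : τ ol = -ol) (hτj : τ oj = oj) {o : R} (hτo : τ o = -o)
    (s' : R →ₐ[F] R) (hs' : G1 P A ol oj s') {B C B' C' : R}
    (h : PD F P A ol oj (B + C * o) (B' + C' * o))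
    (hB : τ B = B) (hC : τ C = C) (hB' : τ B' = B') (hC' : τ C' = C')
    (sB : s' B = B) (sC : s' C = C) (sB' : s' B' = B') (sC' : s' C' = C')
    (c1 : C * (o - s' o) = 0 → C = 0) (c2 : C' * (o - s' o) = 0 → C' = 0) :
    B + C * o = 0 ∧ B' + C' * o = 0 := by
  have h1 := H.map τ hτP hτA (c := -1) (d := 1) (by rw [hτl, neg_one_smul]) (by rw [hτj, one_smul]) h
  rw [neg_one_smul, one_smul, map_add, map_add, map_mul, map_mul, hB, hC, hB', hC', hτo] at h1
  have h3 := H.sub h h1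
  have h4 := H.add h h1
  have e1 : B + C * o - -(B + C * -o) = B + B := by rw [mul_neg]; abel
  have e2 : B' + C' * o - (B' + C' * -o) = (C' + C') * o := by rw [mul_neg, add_mul]; abel
  have e3 : B + C * o + -(B + C * -o) = (C + C) * o := by rw [mul_neg, add_mul]; abel
  have e4 : B' + C' * o + (B' + C' * -o) = B' + B' := by rw [mul_neg]; abel
  rw [e1, e2] at h3
  rw [e3, e4] at h4
  have hz : ∀ {X : R}, X + X = 0 → X = 0 := fun h => add_self_zero (F := F) H.two h
  have h5 := H.sub h3 (H.map1 s' hs'.hP hs'.hA hs'.hl hs'.hj h3)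
  have h6 := H.sub h4 (H.map1 s' hs'.hP hs'.hA hs'.hl hs'.hj h4)
  rw [map_add, map_mul, map_add, sB, sC', sub_self, ← mul_sub] at h5
  rw [map_add, map_mul, map_add, sC, sB', sub_self, ← mul_sub] at h6
  have h7 := H.zero_left h5
  have h8 := H.zero_right h6
  rw [add_mul] at h7 h8
  have hC0 := c1 (hz h8)
  have hC0' := c2 (hz h7)
  rw [hC0', add_zero, zero_mul] at h3
  rw [hC0, add_zero, zero_mul] at h4
  have hB0 := hz (H.zero_right h3)
  have hB0' := hz (H.zero_left h4)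
  rw [hB0, hC0, hB0', hC0']
  simp

/-- **The cancellation lemma.** -/
theorem Setup.dd_zero (H : Setup F P A ol oj) {I : Type*} [Finite I] (s : I → (R →ₐ[F] R))
    (hs : ∀ i, G1 P A ol oj (s i)) (hcomm : ∀ i k X, s i (s k X) = s k (s i X))
    (hnil : ∀ i, ∃ n : ℕ, ∀ X, (fun β => s i β - β)^[n] X = 0)
    (t : R →ₐ[F] R) (ht : G1 P A ol oj t) (ht2 : ∀ X, t (t X) = X)
    (hts : ∀ X, (∀ i, s i X = X) → ∀ i, s i (t X) = t X)
    (τ : R →ₐ[F] R) (hτP : ∀ X, P X → P (τ X))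
    (hτA : ∀ X ∈ A, τ X ∈ A) (hτl : τ ol = -ol) (hτj : τ oj = oj) (hτi : ∀ X, τ X = 0 → X = 0) {a b : ℤ}
    (ha : (a : F) ≠ 0) (odd : ∀ X ∈ A, (∀ i, s i X = X) → t X = -X → τ (τ X) = a • τ X + b • X)
    {o : R} (hτo : τ o = -o) (s' : R →ₐ[F] R) (hs' : G1 P A ol oj s')
    (even : ∀ X ∈ A, (∀ i, s i X = X) → t X = X → ∃ B C, X = B + C * o ∧ τ B = B ∧ τ C = C ∧ s' B = B ∧
      s' C = C ∧ (C * (o - s' o) = 0 → C = 0))
    {S T : R} (h : PD F P A ol oj S T) : S = 0 ∧ T = 0 := by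
  classical
  have key : ∀ S T, PD F P A ol oj S T → (∀ i, s i S = S) → (∀ i, s i T = T) → S = 0 ∧ T = 0 := by
    intro S T h hS hT
    have h1 := H.map1 t ht.hP ht.hA ht.hl ht.hj h
    have h3 := H.add h h1
    have h4 := H.sub h h1
    have tS := hts S hS
    have tT := hts T hT
    have k1 : S + t S = 0 ∧ T + t T = 0 := by
      obtain ⟨B, C, e1, b1, b2, b3, b4, b5⟩ := even (S + t S) h3.1 (fun i => by rw [map_add, hS, tS])
        (by rw [map_add, ht2, add_comm])
      obtain ⟨B', C', e1', b1', b2', b3', b4', b5'⟩ := even (T + t T) h3.2.1 (fun i => by rw [map_add, hT, tT])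
        (by rw [map_add, ht2, add_comm])
      rw [e1, e1'] at h3 ⊢
      exact H.even_zero τ hτP hτA hτl hτj hτo s' hs' h3 b1 b2 b1' b2' b3 b4 b3' b4' b5 b5'
    have k2 : S - t S = 0 ∧ T - t T = 0 :=
      H.odd_zero τ hτP hτA hτl hτj hτi ha h4
        (odd _ h4.1 (fun i => by rw [map_sub, hS, tS]) (by rw [map_sub, ht2, neg_sub]))
        (odd _ h4.2.1 (fun i => by rw [map_sub, hT, tT]) (by rw [map_sub, ht2, neg_sub]))
    have hz : ∀ {X : R}, X + X = 0 → X = 0 := fun h => add_self_zero (F := F) H.two h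
    refine ⟨hz ?_, hz ?_⟩
    · have := congrArg₂ (· + ·) k1.1 k2.1
      simp only [add_zero] at this
      rw [← this]; abel
    · have := congrArg₂ (· + ·) k1.2 k2.2
      simp only [add_zero] at this
      rw [← this]; abel
  by_contra hcon
  have := Fintype.ofFinite I
  have hit : ∀ i (n : ℕ) (x : R × R), (fun x : R × R => (s i x.1 - x.1, s i x.2 - x.2))^[n] x =
      ((fun β => s i β - β)^[n] x.1, (fun β => s i β - β)^[n] x.2) := by
    intro i n x
    induction n with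
    | zero => rfl
    | succ n ih => rw [Function.iterate_succ_apply', Function.iterate_succ_apply', Function.iterate_succ_apply', ih]
  obtain ⟨x, hx, hx0, hxD⟩ := Cfsg.Agent.H883.C7.exists_common
    (fun i (x : R × R) => (s i x.1 - x.1, s i x.2 - x.2))
    (fun i k x => by
      refine Prod.ext ?_ ?_
      · show s i (s k x.1 - x.1) - (s k x.1 - x.1) = s k (s i x.1 - x.1) - (s i x.1 - x.1)
        rw [map_sub, map_sub, hcomm]; abel
      · show s i (s k x.2 - x.2) - (s k x.2 - x.2) = s k (s i x.2 - x.2) - (s i x.2 - x.2)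
        rw [map_sub, map_sub, hcomm]; abel)
    {x | PD F P A ol oj x.1 x.2} {0} (Set.mem_singleton _)
    (fun i x hx => H.sub (H.map1 (s i) (hs i).hP (hs i).hA (hs i).hl (hs i).hj hx) hx)
    (fun i x hx => by
      rw [Set.mem_singleton_iff] at hx ⊢
      rw [hx]
      refine Prod.ext ?_ ?_
      · show s i 0 - 0 = 0
        rw [map_zero, sub_zero]
      · show s i 0 - 0 = 0
        rw [map_zero, sub_zero])
    (fun i => by
      obtain ⟨n, hn⟩ := hnil i
      exact ⟨n, fun x _ => by rw [hit, hn, hn]; rfl⟩)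
    (a := (S, T)) h (by
      rw [Set.mem_singleton_iff]
      intro h0
      exact hcon ⟨congrArg Prod.fst h0, congrArg Prod.snd h0⟩) Finset.univ
  have h1 : ∀ i, s i x.1 = x.1 := fun i => by
    have := congrArg Prod.fst (Set.mem_singleton_iff.1 (hxD i (Finset.mem_univ i)))
    exact sub_eq_zero.1 this
  have h3 : ∀ i, s i x.2 = x.2 := fun i => by
    have := congrArg Prod.snd (Set.mem_singleton_iff.1 (hxD i (Finset.mem_univ i)))
    exact sub_eq_zero.1 this
  obtain ⟨e1, e2⟩ := key _ _ hx h1 h3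
  exact hx0 (Set.mem_singleton_iff.2 (Prod.ext e1 e2))

/-- From an element `(1 + T oj) (1 + S ol)` with `T = T0 + T1 ol` to a pair. -/
theorem Setup.of_b (H : Setup F P A ol oj) (x : R →ₐ[F] R) (hxP : ∀ X, P X → P (x X)) (xl : x ol = -ol)
    (xj : x oj = -oj) {T0 T1 S : R} (h0 : T0 ∈ A) (h1 : T1 ∈ A) (hS : S ∈ A) (x0 : x T0 = T0) (x1 : x T1 = T1)
    (xS : x S = S) (hb : P ((1 + (T0 + T1 * ol) * oj) * (1 + S * ol))) : PD F P A ol oj S T0 := by
  have e1 : (1 + (T0 + T1 * ol) * oj) * (1 + S * ol) =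
      1 + (S * ol + T0 * oj) + (T1 + T0 * S) * (ol * oj) := by
    have f1 : T0 * oj * (S * ol) = T0 * S * (ol * oj) := by
      rw [mul_assoc, ← mul_assoc oj, H.cj _ hS, mul_assoc S, H.comm]; simp only [mul_assoc]
    have f2 : T1 * ol * oj * (S * ol) = 0 := by
      have : oj * (S * ol) = S * (ol * oj) := by rw [← mul_assoc oj, H.cj _ hS, mul_assoc S, H.comm]
      rw [mul_assoc, this, mul_assoc, ← mul_assoc ol, H.cl _ hS, mul_assoc S, ← mul_assoc ol, H.l2, zero_mul,
        mul_zero, mul_zero]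
    have f3 : ∀ U W : R, (1 + U) * (1 + W) = 1 + (W + U) + U * W := by
      intro U W
      rw [mul_add, mul_one, add_mul, one_mul]; abel
    rw [f3, add_mul T0, add_mul (T0 * oj), f1, f2, add_mul T1, mul_assoc T1 ol oj]
    abel
  rw [e1] at hb
  have hb' := hxP _ hb
  have e2 : x (1 + (S * ol + T0 * oj) + (T1 + T0 * S) * (ol * oj)) =
      1 + (-(S * ol + T0 * oj)) + (T1 + T0 * S) * (ol * oj) := by
    simp only [map_add, map_mul, map_one, x0, x1, xS, xl, xj, mul_neg, neg_mul, neg_neg]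
    abel
  rw [e2] at hb'
  have hp := H.mul _ _ hb hb'
  have hZ : T1 + T0 * S ∈ A := A.add_mem h1 (A.mul_mem h0 hS)
  have hd := H.dmul (S := S) (T := T0) hS h0
  have t1 : (S * ol + T0 * oj) * ((T1 + T0 * S) * (ol * oj)) = 0 := by
    set Z := T1 + T0 * S
    rw [add_mul]
    have e1 : S * ol * (Z * (ol * oj)) = 0 := by
      rw [mul_assoc, ← mul_assoc ol, H.cl _ hZ, mul_assoc Z, ← mul_assoc ol, H.l2, zero_mul, mul_zero, mul_zero]
    have e2 : T0 * oj * (Z * (ol * oj)) = 0 := by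
      rw [mul_assoc, ← mul_assoc oj, H.cj _ hZ, mul_assoc Z, ← H.comm, ← mul_assoc oj, H.j2, zero_mul, mul_zero,
        mul_zero]
    rw [e1, e2, add_zero]
  have t2 : (T1 + T0 * S) * (ol * oj) * (S * ol + T0 * oj) = 0 := by
    set Z := T1 + T0 * S
    have e1 : ol * oj * (S * ol) = 0 := by
      rw [mul_assoc, ← mul_assoc oj, H.cj _ hS, mul_assoc S, H.comm, ← mul_assoc ol, H.cl _ hS, mul_assoc S,
        ← mul_assoc ol, H.l2, zero_mul, mul_zero]
    have e2 : ol * oj * (T0 * oj) = 0 := by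
      rw [mul_assoc, ← mul_assoc oj, H.cj _ h0, mul_assoc T0, H.j2, mul_zero, mul_zero]
    rw [mul_assoc, mul_add, e1, e2, add_zero, mul_zero]
  have t3 : (T1 + T0 * S) * (ol * oj) * ((T1 + T0 * S) * (ol * oj)) = 0 := by
    set Z := T1 + T0 * S
    have e1 : ol * oj * (Z * (ol * oj)) = 0 := by
      rw [mul_assoc, ← mul_assoc oj, H.cj _ hZ, mul_assoc Z, ← H.comm, ← mul_assoc oj, H.j2, zero_mul, mul_zero,
        mul_zero]
    rw [mul_assoc, e1, mul_zero]
  have e3 : (1 + (S * ol + T0 * oj) + (T1 + T0 * S) * (ol * oj)) *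
      (1 + (-(S * ol + T0 * oj)) + (T1 + T0 * S) * (ol * oj)) =
      1 + ((T1 + T0 * S) + (T1 + T0 * S) - (S * T0 + T0 * S)) * (ol * oj) := by
    rw [sub_mul, ← hd, add_mul (T1 + T0 * S)]
    generalize S * ol + T0 * oj = D at t1 t2 t3 ⊢
    generalize (T1 + T0 * S) * (ol * oj) = Y at t1 t2 t3 ⊢
    simp only [mul_add, add_mul, mul_one, one_mul, mul_neg, t1, t2, t3]
    abel
  rw [e3] at hp
  have hz := H.th1 _ (A.sub_mem (A.add_mem hZ hZ) (A.add_mem (A.mul_mem hS h0) (A.mul_mem h0 hS))) hp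
  refine ⟨hS, h0, ?_⟩
  have e4 : (2 : F)⁻¹ • ((S * ol + T0 * oj) * (S * ol + T0 * oj)) = (T1 + T0 * S) * (ol * oj) := by
    rw [hd, ← sub_eq_zero.1 hz, ← two_smul F, smul_mul_assoc, smul_smul, inv_mul_cancel₀ H.two, one_smul]
  rw [ex, e4]
  exact hb

end

end Cfsg.Agent.H889.C7O
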