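import Cfsg.Agent.H889.C7O.Twist

/-!
# The odd operators commuting with the Siegel group of a slot (task 1882)
-/

set_option autoImplicit false
set_option linter.unusedSectionVars false

namespace Cfsg.Agent.H889.C7O

open QuadraticMap hiding proj
open Cfsg.Agent.LieClassical.OrthCore Cfsg.Agent.LieClassical.OrthTrans
open Cfsg.Agent.H882.Ten Cfsg.Agent.LieClassical.OrthFinite
open Cfsg.Agent.H883.C7

variable {F : Type*} [Field F] {κ : Type*} [Fintype κ] [DecidableEq κ] {ι : Type*} [Fintype ι] [DecidableEq ι]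
  {q : QuadraticForm F (κ → F)} {w w' : κ → F} {μ : (κ → F) ≃ₗ[F] (κ → F)} {a b : ℤ}

theorem Tw.inv_w (hμ : Tw q w w' μ a b) : μ⁻¹ w = w := by
  have h : μ⁻¹ (μ w) = w := LinearEquiv.symm_apply_apply μ w
  rwa [hμ.fw] at h

theorem Tw.inv_sim (hμ : Tw q w w' μ a b) (x y : κ → F) : polar q (μ⁻¹ x) (μ⁻¹ y) = -1 * polar q x y := by
  have h1 := hμ.sim (μ⁻¹ x) (μ⁻¹ y)
  have h2 : ∀ v, μ (μ⁻¹ v) = v := fun v => LinearEquiv.apply_symm_apply μ v
  rw [h2, h2] at h1
  linear_combination h1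

theorem cj_slE_inv_apply (m : ι) (X : Module.End F ((ι → κ) → F)) (v : (ι → κ) → F) :
    cj (slE m μ⁻¹) X v = slE m μ⁻¹ (X (slE m μ v)) := by
  have : (slE m μ⁻¹)⁻¹ = slE (F := F) m μ := by rw [← map_inv, inv_inv]
  rw [cj_apply, this]

theorem odd_rel (h2 : (2 : F) ≠ 0) (hyp : Hyp q w w')
    (hd : ∃ z, polar q w z = 0 ∧ polar q w' z = 0 ∧ q z ≠ 0) (hμ : Tw q w w' μ a b) {m : ι}
    {X : Module.End F ((ι → κ) → F)} (hX : NC q w m X)
    (hp : sl m (pp q w w') * X + X * sl m (pp q w w') = X) :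
    cj (slE m μ⁻¹) (cj (slE m μ⁻¹) X) = a • cj (slE m μ⁻¹) X + b • X := by
  have hn : (-1 : F) ≠ 0 := neg_ne_zero.2 one_ne_zero
  have hEX : NC q w m (cj (slE m μ⁻¹) X) := hX.cj hn hμ.inv_sim hμ.inv_w
  have hEEX : NC q w m (cj (slE m μ⁻¹) (cj (slE m μ⁻¹) X)) := hEX.cj hn hμ.inv_sim hμ.inv_w
  rw [← Int.cast_smul_eq_zsmul F, ← Int.cast_smul_eq_zsmul F, ← sub_eq_zero]
  refine comm_zero h2 hyp hd (m := m) (hEEX.sub ((hEX.smul _).add (hX.smul _))) fun c => ?_
  have hw : slE m μ (ten F κ m c w') = -ten F κ m c w' := by rw [slE_ten, hμ.fw', map_neg]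
  have e1 : cj (slE m μ⁻¹) X (ten F κ m c w') = -slE m μ⁻¹ (X (ten F κ m c w')) := by
    rw [cj_slE_inv_apply, hw, map_neg, map_neg]
  have e2 : cj (slE m μ⁻¹) (cj (slE m μ⁻¹) X) (ten F κ m c w') =
      slE m μ⁻¹ (slE m μ⁻¹ (X (ten F κ m c w'))) := by
    rw [cj_slE_inv_apply, hw, map_neg, map_neg, e1, map_neg, neg_neg]
  rw [LinearMap.sub_apply, LinearMap.add_apply, LinearMap.smul_apply, LinearMap.smul_apply, e1, e2]
  set r := X (ten F κ m c w') with hr
  have hr0 : sl m (pp q w w') r = 0 := by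
    have h1 := LinearMap.congr_fun hp (ten F κ m c w')
    rw [LinearMap.add_apply, Module.End.mul_apply, Module.End.mul_apply, sl_ten, pp_apply, hyp.pair,
      hyp.polar_right, one_smul, zero_smul, add_zero, ← hr] at h1
    exact add_eq_right.1 h1
  -- the relation
  have hop : (1 : Module.End F (κ → F)) - pp q w w' = (-(a : F)) • ((μ : Module.End F (κ → F)) * (1 - pp q w w')) +
      (b : F) • ((μ : Module.End F (κ → F)) * ((μ : Module.End F (κ → F)) * (1 - pp q w w'))) := by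
    refine LinearMap.ext fun v => ?_
    have hy : ((1 : Module.End F (κ → F)) - pp q w w') v = LieClassical.OrthTrans.proj q w w' v := by
      rw [LinearMap.sub_apply, Module.End.one_apply, pp_apply, LieClassical.OrthTrans.proj]
      abel
    rw [LinearMap.add_apply, LinearMap.smul_apply, LinearMap.smul_apply, Module.End.mul_apply, Module.End.mul_apply,
      Module.End.mul_apply, hy, LinearEquiv.coe_coe]
    exact hμ.rel _ (polar_proj_left hyp v) (polar_proj_right hyp v)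
  have h3 := LinearMap.congr_fun (congrArg (sl m) hop) r
  rw [sl_sub, sl_one, sl_add, sl_smul, sl_smul, sl_mul, sl_mul, sl_mul, sl_sub, sl_one, ← slE_toEnd] at h3
  simp only [LinearMap.sub_apply, LinearMap.add_apply, LinearMap.smul_apply, Module.End.mul_apply,
    Module.End.one_apply, hr0, sub_zero, LinearEquiv.coe_coe] at h3
  have hi : ∀ v, slE m μ⁻¹ (slE m μ v) = v := by
    intro v
    rw [map_inv]
    exact LinearEquiv.symm_apply_apply (slE m μ) v
  have h4 := congrArg (fun v => slE m μ⁻¹ (slE m μ⁻¹ v)) h3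
  simp only [map_add, map_smul, hi] at h4
  rw [h4]
  module

end Cfsg.Agent.H889.C7O
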