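import Cfsg.Agent.H889.C7O.Ops

/-!
# Similarities with multiplier `-1` over the exceptional fields (task 1882)

* `Tw q w w' μ a b` : `μ` is a similarity with multiplier `-1`, `μ w = w`, `μ w' = - w'`, and
  `y = - a μ y + b μ² y` for `y ⊥ w, w'`, with integers `a`, `b`, `a ≠ 0` in `F`;
* `exists_tw` : existence over the exceptional fields;
* `exists_line` : `E q` is transitive on the singular points.
-/

set_option autoImplicit false
set_option linter.unusedSectionVars false

namespace Cfsg.Agent.H889.C7O

open QuadraticMap hiding proj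
open Cfsg.Agent.LieClassical.OrthCore Cfsg.Agent.LieClassical.OrthTrans
open Cfsg.Agent.H882.Ten Cfsg.Agent.LieClassical.OrthFinite
open Cfsg.Agent.H883.C7

variable {F : Type*} [Field F] {κ : Type*} [Fintype κ] [DecidableEq κ]

/-- the twist -/
structure Tw (q : QuadraticForm F (κ → F)) (w w' : κ → F) (μ : (κ → F) ≃ₗ[F] (κ → F)) (a b : ℤ) : Prop where
  sim : ∀ x y, polar q (μ x) (μ y) = -1 * polar q x y
  fw : μ w = w
  fw' : μ w' = -w'
  rel : ∀ y, polar q w y = 0 → polar q w' y = 0 → y = (-(a : F)) • μ y + (b : F) • μ (μ y)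
  ane : (a : F) ≠ 0

/-- A similarity of a nondegenerate form is invertible. -/
theorem exists_equiv {q : QuadraticForm F (κ → F)} (hq : Nondeg q) (f : Module.End F (κ → F))
    (hf : ∀ x y, polar q (f x) (f y) = -1 * polar q x y) : ∃ μ : (κ → F) ≃ₗ[F] (κ → F), ∀ v, μ v = f v := by
  have hinj : Function.Injective f := by
    rw [← LinearMap.ker_eq_bot, LinearMap.ker_eq_bot']
    intro x hx
    refine hq x fun y => ?_
    have h1 := hf x y
    rw [hx, polar_zero_left] at h1
    linear_combination h1
  exact ⟨LinearEquiv.ofInjectiveEndo f hinj, fun v => rfl⟩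

theorem exists_tw_five {q : QuadraticForm F (κ → F)} (hq : Nondeg q) (h5 : (5 : F) = 0) {w w' : κ → F}
    (hyp : Hyp q w w') : ∃ μ, Tw q w w' μ 1 2 := by
  let f : Module.End F (κ → F) := (2 : F) • LinearMap.id - (polarBilin q w').smulRight w -
    (3 : F) • (polarBilin q w).smulRight w'
  have hf : ∀ v, f v = (2 : F) • v - polar q w' v • w - (3 : F) • polar q w v • w' := fun v => rfl
  obtain ⟨μ, hμ⟩ := exists_equiv hq f (by
    intro x y
    rw [hf, hf]
    simp only [polar_sub_left, polar_smul_left, polar_sub_right, polar_smul_right,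
      hyp.pair, hyp.pair', hyp.polar_left, hyp.polar_right, smul_eq_mul, polar_comm q x w, polar_comm q x w']
    linear_combination (polar q x y - polar q w x * polar q w' y - polar q w' x * polar q w y) * h5)
  refine ⟨μ, ⟨fun x y => ?_, ?_, ?_, ?_, ?_⟩⟩
  · rw [hμ, hμ, hf, hf]
    simp only [polar_sub_left, polar_smul_left, polar_sub_right, polar_smul_right,
      hyp.pair, hyp.pair', hyp.polar_left, hyp.polar_right, smul_eq_mul, polar_comm q x w, polar_comm q x w']
    linear_combination (polar q x y - polar q w x * polar q w' y - polar q w' x * polar q w y) * h5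
  · rw [hμ, hf, hyp.pair', hyp.polar_left, zero_smul, smul_zero, sub_zero, one_smul]
    module
  · rw [hμ, hf, hyp.pair, hyp.polar_right, zero_smul, one_smul, sub_zero]
    module
  · intro y hy hy'
    have h1 : ∀ z, polar q w z = 0 → polar q w' z = 0 → μ z = (2 : F) • z := by
      intro z hz hz'
      rw [hμ, hf, hz, hz']
      simp
    rw [h1 y hy hy', h1 _ (by rw [polar_smul_right, hy, smul_zero]) (by rw [polar_smul_right, hy', smul_zero])]
    have e : (-((1 : ℤ) : F)) • (2 : F) • y + ((2 : ℤ) : F) • (2 : F) • (2 : F) • y = (1 + 5 : F) • y := by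
      push_cast
      module
    rw [e, h5, add_zero, one_smul]
  · simp

theorem exists_tw_three {q : QuadraticForm F (κ → F)} (h2 : (2 : F) ≠ 0) (hq : Nondeg q) (h3 : (3 : F) = 0)
    (hsq : ∀ x : F, x ≠ 0 → x * x = 1)
    (hk : Fintype.card κ = 4) (hfour : ∀ w x, w ≠ 0 → q w = 0 → q x = 0 → polar q w x = 0 → ∃ c : F, x = c • w)
    {w w' : κ → F} (hyp : Hyp q w w') : ∃ μ, Tw q w w' μ (-1) 1 := by
  have hd : 4 = Module.finrank F (κ → F) := by rw [Module.finrank_fintype_fun_eq_card, hk]
  -- anisotropy
  have han : ∀ y, polar q w y = 0 → polar q w' y = 0 → q y = 0 → y = 0 := by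
    intro y hy hy' h0
    obtain ⟨c, rfl⟩ := hfour w y hyp.left_ne hyp.left h0 hy
    rw [polar_smul_right, hyp.pair', smul_eq_mul, mul_one] at hy'
    rw [hy', zero_smul]
  obtain ⟨y1, h10, h1⟩ := exists_perp_ne (Q := q) ![w, w'] (by omega)
  have a1 : polar q w y1 = 0 := h1 0
  have a2 : polar q w' y1 = 0 := h1 1
  obtain ⟨y2, h20, h2'⟩ := exists_perp_ne (Q := q) ![w, w', y1] (by omega)
  have b1 : polar q w y2 = 0 := h2' 0
  have b2 : polar q w' y2 = 0 := h2' 1
  have b3 : polar q y1 y2 = 0 := h2' 2
  have b3' : polar q y2 y1 = 0 := by rw [polar_comm]; exact b3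
  have n1 : q y1 ≠ 0 := fun h => h10 (han _ a1 a2 h)
  have n2 : q y2 ≠ 0 := fun h => h20 (han _ b1 b2 h)
  have key : ∀ u v, polar q w u = 0 → polar q w' u = 0 → polar q w v = 0 → polar q w' v = 0 → polar q u v = 0 →
      q u ≠ 0 → q v ≠ 0 → q u = q v := by
    intro u v hu hu' hv hv' huv nu nv
    have e1 : (q u - q v) * (q u + q v) = 0 := by linear_combination hsq _ nu - hsq _ nv
    rcases mul_eq_zero.1 e1 with h | h
    · exact sub_eq_zero.1 h
    · exfalso
      have h4 : u + v = 0 := han _ (by rw [polar_add_right, hu, hv, add_zero])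
        (by rw [polar_add_right, hu', hv', add_zero]) (by rw [Q_add, huv, add_zero, h])
      have h5 := congrArg (polar q u) h4
      rw [polar_add_right, huv, add_zero, polar_self', polar_zero_right] at h5
      exact mul_ne_zero h2 nu h5
  have he : q y2 = q y1 := key y2 y1 b1 b2 a1 a2 b3' n2 n1
  set ε := q y1 with hε
  have hεε : ε * ε = 1 := hsq _ n1
  have p1 : polar q y1 y1 = -ε := by rw [polar_self', ← hε]; linear_combination ε * h3
  have p2 : polar q y2 y2 = -ε := by rw [polar_self', he]; linear_combination ε * h3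
  -- expansion
  have hexp : ∀ v, v = polar q w' v • w + polar q w v • w' + (-ε * polar q y1 v) • y1 + (-ε * polar q y2 v) • y2 := by
    intro v
    set r := v - (polar q w' v • w + polar q w v • w' + (-ε * polar q y1 v) • y1 + (-ε * polar q y2 v) • y2) with hr
    have r1 : polar q w r = 0 := by
      rw [hr]
      simp only [polar_sub_right, polar_add_right, polar_smul_right, hyp.pair, hyp.polar_left, a1, b1, smul_eq_mul]
      ring
    have r2 : polar q w' r = 0 := by
      rw [hr]
      simp only [polar_sub_right, polar_add_right, polar_smul_right, hyp.pair', hyp.polar_right, a2, b2, smul_eq_mul]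
      ring
    have r3 : polar q y1 r = 0 := by
      rw [hr]
      simp only [polar_sub_right, polar_add_right, polar_smul_right, polar_comm q y1 w, polar_comm q y1 w', a1, a2,
        p1, b3, smul_eq_mul]
      linear_combination (-polar q y1 v) * hεε
    have r4 : polar q y2 r = 0 := by
      rw [hr]
      simp only [polar_sub_right, polar_add_right, polar_smul_right, polar_comm q y2 w, polar_comm q y2 w', b1, b2,
        p2, b3', smul_eq_mul]
      linear_combination (-polar q y2 v) * hεε
    have r0 : r = 0 := by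
      by_contra hne
      have nr : q r ≠ 0 := fun h => hne (han _ r1 r2 h)
      have e1 : q y1 = q r := key y1 r a1 a2 r1 r2 r3 n1 nr
      have e2 : y1 + y2 + r = 0 := han _ (by rw [polar_add_right, polar_add_right, a1, b1, r1]; simp)
        (by rw [polar_add_right, polar_add_right, a2, b2, r2]; simp)
        (by
          rw [Q_add, Q_add, polar_add_left, b3, r3, r4, he, ← e1, ← hε]
          linear_combination ε * h3)
      have e3 := congrArg (polar q y1) e2
      rw [polar_add_right, polar_add_right, b3, r3, p1, polar_zero_right] at e3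
      exact n1 (by linear_combination -e3)
    rw [hr] at r0
    exact sub_eq_zero.1 r0
  let f : Module.End F (κ → F) := (polarBilin q w').smulRight w - (polarBilin q w).smulRight w' +
    (-ε) • (polarBilin q y1).smulRight (y1 + y2) + (-ε) • (polarBilin q y2).smulRight (y2 - y1)
  have hf : ∀ v, f v = polar q w' v • w - polar q w v • w' + (-ε) • polar q y1 v • (y1 + y2) +
    (-ε) • polar q y2 v • (y2 - y1) := fun v => rfl
  have hpol : ∀ x y, polar q x y = polar q w' x * polar q w y + polar q w x * polar q w' y -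
      ε * (polar q y1 x * polar q y1 y + polar q y2 x * polar q y2 y) := by
    intro x y
    conv_lhs => rw [hexp x]
    simp only [polar_add_left, polar_smul_left, smul_eq_mul]
    ring
  have hsim : ∀ x y, polar q (f x) (f y) = -1 * polar q x y := by
    intro x y
    rw [hpol x y, hf, hf]
    simp only [polar_add_left, polar_sub_left, polar_smul_left, polar_add_right, polar_sub_right, polar_smul_right,
      hyp.pair, hyp.pair', hyp.polar_left, hyp.polar_right, smul_eq_mul, a1, a2, b1, b2, b3, b3', p1, p2,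
      polar_comm q y1 w, polar_comm q y1 w', polar_comm q y2 w, polar_comm q y2 w']
    have hε3 : ε * ε * ε = ε := by rw [hεε, one_mul]
    linear_combination (-2 * (polar q y1 x * polar q y1 y + polar q y2 x * polar q y2 y)) * hε3 -
      ε * (polar q y1 x * polar q y1 y + polar q y2 x * polar q y2 y) * h3
  obtain ⟨μ, hμ⟩ := exists_equiv hq f hsim
  have m1 : μ y1 = y1 + y2 := by
    rw [hμ, hf, a1, a2, p1, b3', zero_smul, zero_smul, zero_smul, smul_zero, add_zero, sub_zero, zero_add, smul_smul,
      neg_mul_neg, hεε, one_smul]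
  have m2 : μ y2 = y2 - y1 := by
    rw [hμ, hf, b1, b2, p2, b3, zero_smul, zero_smul, zero_smul, smul_zero, add_zero, sub_zero, zero_add, smul_smul,
      neg_mul_neg, hεε, one_smul]
  refine ⟨μ, ⟨fun x y => by rw [hμ, hμ]; exact hsim x y, ?_, ?_, ?_, ?_⟩⟩
  · rw [hμ, hf, hyp.pair', hyp.polar_left, polar_comm q y1 w, a1, polar_comm q y2 w, b1]
    simp
  · rw [hμ, hf, hyp.pair, hyp.polar_right, polar_comm q y1 w', a2, polar_comm q y2 w', b2]
    simp
  · intro y hy hy'
    have e := hexp y
    rw [hy, hy', zero_smul, zero_smul, zero_add, zero_add] at e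
    generalize -ε * polar q y1 y = c1 at e
    generalize -ε * polar q y2 y = c2 at e
    rw [e]
    simp only [map_add, map_smul, m1, m2, map_sub]
    push_cast
    have e' : c1 • y1 + c2 • y2 = c1 • y1 + c2 • y2 + (3 : F) • (c1 • y2 - c2 • y1) := by
      rw [h3, zero_smul, add_zero]
    rw [e']
    module
  · simp

/-- **Existence.** -/
theorem exists_tw [Finite F] {q : QuadraticForm F (κ → F)} (H : Hyp7 q)
    (hexc : (Fintype.card κ = 3 ∧ Nat.card F = 5) ∨ (Fintype.card κ = 4 ∧ (Nat.card F = 3 ∨ Nat.card F = 5)))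
    {w w' : κ → F} (hyp : Hyp q w w') : ∃ μ a b, Tw q w w' μ a b := by
  have : Fintype F := Fintype.ofFinite F
  have hc : ((Nat.card F : ℕ) : F) = 0 := by
    rw [Nat.card_eq_fintype_card]
    exact FiniteField.cast_card_eq_zero F
  have h5 : Nat.card F = 5 → ∃ μ a b, Tw q w w' μ a b := by
    intro h
    rw [h] at hc
    obtain ⟨μ, hμ⟩ := exists_tw_five H.nd (by exact_mod_cast hc) hyp
    exact ⟨μ, 1, 2, hμ⟩
  rcases hexc with ⟨_, h⟩ | ⟨hk, h | h⟩
  · exact h5 h
  · rw [h] at hc
    obtain ⟨μ, hμ⟩ := exists_tw_three H.two H.nd (by exact_mod_cast hc) (by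
      intro x hx
      have h1 := FiniteField.pow_card_sub_one_eq_one x hx
      rw [← Nat.card_eq_fintype_card, h] at h1
      rw [← h1]
      ring) hk (H.four hk) hyp
    exact ⟨μ, -1, 1, hμ⟩
  · exact h5 h

/-- `E q` is transitive on the singular points. -/
theorem exists_line {q : QuadraticForm F (κ → F)} (hq : Nondeg q) (hd : 3 ≤ Fintype.card κ) {u w : κ → F}
    (hu0 : u ≠ 0) (hu : q u = 0) (hw0 : w ≠ 0) (hw : q w = 0) : ∃ e ∈ E q, ∃ c : F, c ≠ 0 ∧ e u = c • w := by
  suffices h : ∃ e ∈ E q, ∃ c : F, e u = c • w by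
    obtain ⟨e, he, c, hc⟩ := h
    refine ⟨e, he, c, ?_, hc⟩
    rintro rfl
    rw [zero_smul] at hc
    exact hu0 ((map_eq_zero_iff e e.injective).1 hc)
  by_cases hdep : ∃ c : F, u = c • w
  · obtain ⟨c, hc⟩ := hdep
    exact ⟨1, (E q).one_mem, c, hc⟩
  push Not at hdep
  by_cases hp : polar q u w = 0
  · obtain ⟨g, hg, hgu⟩ := exists_siegel_of_orth hq hu hw hp (by
      intro c hc
      have h1 : (1 + c) • u = c • w := by
        have : (1 + c) • u = u + c • u := by module
        rw [this]
        nth_rewrite 1 [hc]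
        module
      by_cases h0 : 1 + c = 0
      · rw [h0, zero_smul] at h1
        rcases smul_eq_zero.1 h1.symm with h | h
        · rw [h, add_zero] at h0
          exact one_ne_zero h0
        · exact hw0 h
      · refine hdep ((1 + c)⁻¹ * c) ?_
        rw [mul_smul, ← h1, smul_smul, inv_mul_cancel₀ h0, one_smul])
    exact ⟨g, hg, 1, by rw [hgu, one_smul]⟩
  · have hyp : Hyp q u ((polar q u w)⁻¹ • w) := by
      refine ⟨hu, ?_, ?_⟩
      · rw [QuadraticMap.map_smul, hw, smul_zero]
      · rw [polar_smul_right, smul_eq_mul, inv_mul_cancel₀ hp]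
    set w' := (polar q u w)⁻¹ • w with hw'
    obtain ⟨z, hz1, hz2, hz3⟩ := exists_nonsing_perp hq (by rw [Module.finrank_fintype_fun_eq_card]; exact hd) hyp
    have hx := sing_vec hyp hz1 hz2
    set x := u + z - q z • w' with hxd
    have hxu : polar q x u = -(q z) := by
      rw [hxd, polar_sub_left, polar_add_left, polar_smul_left, hyp.polar_left, polar_comm q z, hz1, hyp.pair']
      simp
    have hxw : polar q x w' = 1 := by
      rw [hxd, polar_sub_left, polar_add_left, polar_smul_left, hyp.polar_right, polar_comm q z, hz2, hyp.pair]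
      simp
    have hn : -(q z) ≠ 0 := neg_ne_zero.2 hz3
    have h1 : Hyp q x ((-(q z))⁻¹ • u) := by
      refine ⟨hx, ?_, ?_⟩
      · rw [QuadraticMap.map_smul, hu, smul_zero]
      · rw [polar_smul_right, hxu, smul_eq_mul, inv_mul_cancel₀ hn]
    have h3 : Hyp q x w' := ⟨hx, hyp.right, hxw⟩
    obtain ⟨g, hg, -, hgu⟩ := siegel_partner h1 h3
    refine ⟨g, hg, -(q z) * (polar q u w)⁻¹, ?_⟩
    rw [map_smul] at hgu
    rw [mul_smul, ← hw', ← hgu, smul_smul, mul_inv_cancel₀ hn, one_smul]

end Cfsg.Agent.H889.C7O
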